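import Cfsg.Agent.H761.SylowAlt

/-!
# The base group of the wreath product and its normaliser (helper761)

`ι : I × ZMod p ↪ α`, at most one point outside the range.

* `base ι` : the group of all `T ι (tr f)`;
* `norm_base` : an element normalising `base ι` is monomial, `T ι (tr f * sc a * bl σ)`;
* `cent_base` : `base ι` is self-centralising;
* `bl_eq_one_of_cycle` : a `p`-cycle in a wreath product lies in the base group.
-/

set_option autoImplicit false

namespace Cfsg.Agent.H761

open Equiv Equiv.Perm Cfsg.Agent.H761.Frame Cfsg.Agent.H802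

variable {I α : Type*} {p : ℕ}

/-- any two moved points are in the same cycle -/
def OneCycle (c : Perm α) : Prop := ∀ x y, c x ≠ x → c y ≠ y → ∃ k : ℕ, (c ^ k) x = y

theorem OneCycle.conj {c : Perm α} (h : OneCycle c) (g : Perm α) : OneCycle (g * c * g⁻¹) := by
  intro x y hx hy
  have hx' : c (g⁻¹ x) ≠ g⁻¹ x := by
    intro h1
    apply hx
    show g (c (g⁻¹ x)) = x
    rw [h1]
    exact g.apply_symm_apply x
  have hy' : c (g⁻¹ y) ≠ g⁻¹ y := by
    intro h1
    apply hy
    show g (c (g⁻¹ y)) = y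
    rw [h1]
    exact g.apply_symm_apply y
  obtain ⟨k, hk⟩ := h _ _ hx' hy'
  refine ⟨k, ?_⟩
  rw [conj_pow]
  show g ((c ^ k) (g⁻¹ x)) = y
  rw [hk]
  exact g.apply_symm_apply y

theorem tr_pow_apply (f : I → ZMod p) (k : ℕ) (x : I × ZMod p) : (tr f ^ k) x = (x.1, x.2 + k * f x.1) := by
  rw [← tr_nsmul, tr_apply]
  simp

theorem T_pow_apply (ι : I × ZMod p ↪ α) (g : Perm (I × ZMod p)) (k : ℕ) (x : I × ZMod p) :
    (T ι g ^ k) (ι x) = ι ((g ^ k) x) := by
  rw [← map_pow, T_apply]

variable [DecidableEq I]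

theorem moved_single {ι : I × ZMod p ↪ α} {i : I} {u : ZMod p} {x : α}
    (h : T ι (tr (Pi.single i u)) x ≠ x) : ∃ z, x = ι (i, z) := by
  by_cases hx : x ∈ Set.range ι
  · obtain ⟨⟨j, z⟩, rfl⟩ := hx
    by_cases hj : j = i
    · subst hj
      exact ⟨z, rfl⟩
    · exfalso
      apply h
      rw [T_apply, tr_apply, Pi.single_eq_of_ne hj, add_zero]
  · exact absurd (T_out ι _ hx) h

theorem oneCycle_single [NeZero p] (ι : I × ZMod p ↪ α) (i : I) :
    OneCycle (T ι (tr (Pi.single i (1 : ZMod p)))) := by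
  intro x y hx hy
  obtain ⟨z, rfl⟩ := moved_single hx
  obtain ⟨w, rfl⟩ := moved_single hy
  refine ⟨(w - z).val, ?_⟩
  rw [T_pow_apply, tr_pow_apply]
  simp

/-- the support of a one-cycle translation is one block -/
theorem eq_single_of_oneCycle {ι : I × ZMod p ↪ α} {f : I → ZMod p} (hf : f ≠ 0)
    (h : OneCycle (T ι (tr f))) : ∃ j, ∃ u : ZMod p, u ≠ 0 ∧ f = Pi.single j u := by
  obtain ⟨j, hj⟩ : ∃ j, f j ≠ 0 := by
    by_contra hc
    push Not at hc
    exact hf (funext hc)
  refine ⟨j, f j, hj, ?_⟩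
  funext k
  by_cases hk : k = j
  · subst hk
    simp
  · rw [Pi.single_eq_of_ne hk]
    by_contra hfk
    have h1 : ∀ i, f i ≠ 0 → T ι (tr f) (ι (i, 0)) ≠ ι (i, 0) := by
      intro i hi h2
      rw [T_apply, tr_apply] at h2
      have := congrArg Prod.snd (ι.injective h2)
      simp at this
      exact hi this
    obtain ⟨m, hm⟩ := h _ _ (h1 j hj) (h1 k hfk)
    rw [T_pow_apply, tr_pow_apply] at hm
    exact hk (congrArg Prod.fst (ι.injective hm)).symm

/-- the base group -/
def base (ι : I × ZMod p ↪ α) : Subgroup (Perm α) := wr ι ⊥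

omit [DecidableEq I] in
theorem mem_base {ι : I × ZMod p ↪ α} {g : Perm α} : g ∈ base ι ↔ ∃ f : I → ZMod p, g = T ι (tr f) := by
  constructor
  · rintro ⟨f, σ, hσ, rfl⟩
    rw [Subgroup.mem_bot] at hσ
    exact ⟨f, by rw [hσ, bl_one, mul_one]⟩
  · rintro ⟨f, rfl⟩
    exact tr_mem_wr ι ⊥ f

/-- **An element normalising the base group is monomial.** -/
theorem norm_base [Fact p.Prime] [Finite I] {ι : I × ZMod p ↪ α}
    (hout : ∀ y z : α, y ∉ Set.range ι → z ∉ Set.range ι → y = z) {g : Perm α}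
    (hg : ∀ x ∈ base ι, g * x * g⁻¹ ∈ base ι) :
    ∃ (f : I → ZMod p) (a : I → (ZMod p)ˣ) (σ : Perm I), g = T ι (tr f * sc a * bl σ) := by
  have hp : p.Prime := Fact.out
  have h1 : ∀ i, ∃ j, ∃ u : ZMod p, u ≠ 0 ∧
      g * T ι (tr (Pi.single i (1 : ZMod p))) * g⁻¹ = T ι (tr (Pi.single j u)) := by
    intro i
    obtain ⟨f, hf⟩ := mem_base.1 (hg _ (mem_base.2 ⟨Pi.single i 1, rfl⟩))
    have hf0 : f ≠ 0 := by
      rintro rfl
      rw [tr_zero, map_one, mul_inv_eq_one, mul_eq_left] at hf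
      have h2 := T_injective ι (hf.trans (map_one (T ι)).symm)
      have h3 := tr_injective (h2.trans tr_zero.symm)
      have := congrFun h3 i
      simp at this
    obtain ⟨j, u, hu, rfl⟩ := eq_single_of_oneCycle hf0 (by rw [← hf]; exact (oneCycle_single ι i).conj g)
    exact ⟨j, u, hu, hf⟩
  choose s u hu hs using h1
  have h2 : ∀ i, ∃ b : ZMod p, g (ι (i, 0)) = ι (s i, b) := by
    intro i
    refine moved_single (u := u i) ?_
    rw [← hs i]
    show g (T ι (tr (Pi.single i 1)) (g.symm (g (ι (i, 0))))) ≠ _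
    rw [symm_apply_apply, T_apply, tr_apply]
    intro h
    have := congrArg Prod.snd (ι.injective (g.injective h))
    simp at this
  choose b hb using h2
  have h3 : ∀ i z, g (ι (i, z)) = ι (s i, b i + z * u i) := by
    intro i z
    have h4 : ι (i, z) = (T ι (tr (Pi.single i (1 : ZMod p))) ^ z.val) (ι (i, 0)) := by
      rw [T_pow_apply, tr_pow_apply]
      simp
    have h5 : g * T ι (tr (Pi.single i (1 : ZMod p))) ^ z.val = T ι (tr (Pi.single (s i) (u i))) ^ z.val * g := by
      rw [← hs i, conj_pow]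
      group
    have h6 := congrArg (fun e : Perm α => e (ι (i, 0))) h5
    simp only [mul_apply] at h6
    rw [h4, h6, hb, T_pow_apply, tr_pow_apply]
    simp
  have hsinj : Function.Injective s := by
    intro i j hij
    have h4 : g (ι (i, (b j - b i) * (u i)⁻¹)) = g (ι (j, 0)) := by
      rw [h3, h3, hij]
      congr 2
      rw [mul_assoc, inv_mul_cancel₀ (hu i)]
      ring
    exact congrArg Prod.fst (ι.injective (g.injective h4))
  let σ : Perm I := Equiv.ofBijective s (Finite.injective_iff_bijective.1 hsinj)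
  have hσ : ∀ i, σ i = s i := fun i => rfl
  refine ⟨fun j => b (σ.symm j), fun j => Units.mk0 (u (σ.symm j)) (hu _), σ, ?_⟩
  apply T_ext
  · rintro ⟨i, z⟩
    have hσ' : σ.symm (s i) = i := by rw [← hσ, symm_apply_apply]
    rw [h3]
    congr 1
    simp only [mul_apply, bl_apply, sc_apply, tr_apply, Units.val_mk0, hσ, hσ']
    rw [add_comm, mul_comm]
  · intro y hy
    apply hout _ _ _ hy
    rintro ⟨⟨j, w⟩, hjw⟩
    apply hy
    refine ⟨(σ.symm j, (w - b (σ.symm j)) * (u (σ.symm j))⁻¹), ?_⟩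
    apply g.injective
    rw [h3, ← hσ, apply_symm_apply, ← hjw]
    congr 2
    rw [mul_assoc, inv_mul_cancel₀ (hu _)]
    ring

omit [DecidableEq I] in
/-- conjugation of a translation by a monomial element -/
theorem mono_tr (f : I → ZMod p) (a : I → (ZMod p)ˣ) (σ : Perm I) (h : I → ZMod p) :
    (tr f * sc a * bl σ) * tr h * (tr f * sc a * bl σ)⁻¹ = tr (fun i => (a i : ZMod p) * h (σ.symm i)) := by
  have h1 : (tr f * sc a * bl σ) * tr h * (tr f * sc a * bl σ)⁻¹ =
      tr f * (sc a * (bl σ * tr h * (bl σ)⁻¹) * (sc a)⁻¹) * (tr f)⁻¹ := by group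
  rw [h1, bl_tr, sc_tr, tr_comm, mul_inv_cancel_right]
  rfl

/-- **The base group is self-centralising.** -/
theorem cent_base [Fact p.Prime] [Finite I] {ι : I × ZMod p ↪ α}
    (hout : ∀ y z : α, y ∉ Set.range ι → z ∉ Set.range ι → y = z) {g : Perm α}
    (hg : ∀ x ∈ base ι, g * x = x * g) : g ∈ base ι := by
  obtain ⟨f, a, σ, rfl⟩ := norm_base hout (g := g) (fun x hx => by rw [hg x hx, mul_inv_cancel_right]; exact hx)
  have h1 : ∀ h : I → ZMod p, (fun i => (a i : ZMod p) * h (σ.symm i)) = h := by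
    intro h
    apply tr_injective
    rw [← mono_tr f a σ h]
    apply T_injective ι
    rw [map_mul, map_mul (T ι) (tr f * sc a * bl σ), map_inv, hg _ (mem_base.2 ⟨h, rfl⟩), mul_inv_cancel_right]
  have h2 : σ = 1 := by
    ext1 i
    have h3 := congrFun (h1 (Pi.single i 1)) (σ i)
    simp only [symm_apply_apply, Pi.single_eq_same, mul_one] at h3
    by_contra h4
    have h4' : σ i ≠ i := h4
    rw [Pi.single_eq_of_ne h4'] at h3
    exact (a (σ i)).ne_zero h3
  subst h2
  have h3 : a = 1 := by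
    funext i
    have h4 : (a i : ZMod p) * (Pi.single i 1 : I → ZMod p) i = (Pi.single i 1 : I → ZMod p) i :=
      congrFun (h1 (Pi.single i 1)) i
    apply Units.ext
    simpa using h4
  subst h3
  exact mem_base.2 ⟨f, by simp⟩

omit [DecidableEq I] in
theorem tr_bl_pow_fst (f : I → ZMod p) (σ : Perm I) (k : ℕ) (x : I × ZMod p) :
    (((tr f * bl σ : Perm (I × ZMod p)) ^ k) x).1 = (σ ^ k) x.1 := by
  induction k with
  | zero => simp
  | succ k ih => rw [pow_succ', pow_succ', mul_apply, mul_apply, mul_apply, tr_apply, bl_apply, ih]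

omit [DecidableEq I] in
/-- A `p`-cycle in the wreath product is in the base group. -/
theorem bl_eq_one_of_cycle [Fact p.Prime] {ι : I × ZMod p ↪ α} {f : I → ZMod p} {σ : Perm I}
    (hc : OneCycle (T ι (tr f * bl σ))) (hcp : T ι (tr f * bl σ) ^ p = 1) : σ = 1 := by
  have hp : p.Prime := Fact.out
  have hcp' : (tr f * bl σ) ^ p = 1 := T_injective ι (by rw [map_pow, hcp, map_one])
  have hσp : ∀ i, (σ ^ p) i = i := by
    intro i
    have h := tr_bl_pow_fst f σ p (i, 0)
    rw [hcp'] at h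
    exact h.symm
  ext1 i
  by_contra hi
  have hi' : σ i ≠ i := hi
  have hmv : ∀ z, T ι (tr f * bl σ) (ι (i, z)) ≠ ι (i, z) := by
    intro z h
    rw [T_apply] at h
    exact hi' (congrArg Prod.fst (ι.injective h))
  obtain ⟨k, hk⟩ := hc _ _ (hmv 0) (hmv 1)
  rw [T_pow_apply] at hk
  have hk' := ι.injective hk
  have h1 : (σ ^ k) i = i := by
    rw [← tr_bl_pow_fst f σ k (i, 0), hk']
  -- `p ∣ k`
  have h2 : p ∣ k := by
    by_contra h3
    have h4 : Nat.Coprime p k := (hp.coprime_iff_not_dvd).2 h3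
    have h5 : Function.IsPeriodicPt σ p i := by
      show (σ^[p]) i = i
      rw [Equiv.Perm.iterate_eq_pow]
      exact hσp i
    have h6 : Function.IsPeriodicPt σ k i := by
      show (σ^[k]) i = i
      rw [Equiv.Perm.iterate_eq_pow]
      exact h1
    have h7 := h5.gcd h6
    rw [h4] at h7
    exact hi' h7
  obtain ⟨m, rfl⟩ := h2
  rw [pow_mul, hcp', one_pow] at hk'
  have := congrArg Prod.snd hk'
  simp at this

end Cfsg.Agent.H761
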