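import Mathlib

/-!
# Imprimitive permutations on blocks `I × ZMod q` (helper761)

* `tr f` : `(i, z) ↦ (i, z + f i)`; `bl σ` : `(i, z) ↦ (σ i, z)`; `sc a` : `(i, z) ↦ (i, a i * z)`;
* `T ι g` : the permutation `g` of `I × ZMod q` extended by the identity along the embedding `ι`;
* signs, conjugation rules, support.
-/

set_option autoImplicit false

namespace Cfsg.Agent.H761.Frame

open Equiv Equiv.Perm

variable {I : Type*} {q : ℕ}

/-- translations -/
def tr (f : I → ZMod q) : Perm (I × ZMod q) := Equiv.prodShear (Equiv.refl I) (fun i => Equiv.addRight (f i))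

/-- permutations of the blocks -/
def bl (σ : Perm I) : Perm (I × ZMod q) := Equiv.prodShear σ (fun _ => Equiv.refl _)

/-- scalings of the blocks -/
def sc (a : I → (ZMod q)ˣ) : Perm (I × ZMod q) := Equiv.prodShear (Equiv.refl I) (fun i => Units.mulLeft (a i))

@[simp] theorem tr_apply (f : I → ZMod q) (x : I × ZMod q) : tr f x = (x.1, x.2 + f x.1) := rfl

@[simp] theorem bl_apply (σ : Perm I) (x : I × ZMod q) : bl σ x = (σ x.1, x.2) := rfl

@[simp] theorem sc_apply (a : I → (ZMod q)ˣ) (x : I × ZMod q) : sc a x = (x.1, a x.1 * x.2) := rfl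

theorem tr_add (f g : I → ZMod q) : tr (f + g) = tr f * tr g := by
  ext1 x
  simp only [tr_apply, mul_apply, Pi.add_apply]
  rw [add_assoc, add_comm (g x.1)]

@[simp] theorem tr_zero : tr (0 : I → ZMod q) = 1 := by
  ext1 x
  simp

theorem tr_neg (f : I → ZMod q) : tr (-f) = (tr f)⁻¹ := by
  rw [eq_inv_iff_mul_eq_one, ← tr_add, neg_add_cancel, tr_zero]

theorem tr_sub (f g : I → ZMod q) : tr (f - g) = tr f * (tr g)⁻¹ := by
  rw [sub_eq_add_neg, tr_add, tr_neg]

theorem tr_nsmul (f : I → ZMod q) (k : ℕ) : tr (k • f) = tr f ^ k := by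
  induction k with
  | zero => simp
  | succ k ih => rw [succ_nsmul, tr_add, ih, pow_succ]

theorem tr_pow_q (f : I → ZMod q) : tr f ^ q = 1 := by
  rw [← tr_nsmul]
  have : q • f = 0 := by
    funext i
    simp
  rw [this, tr_zero]

theorem tr_comm (f g : I → ZMod q) : tr f * tr g = tr g * tr f := by
  rw [← tr_add, ← tr_add, add_comm]

theorem tr_injective : Function.Injective (tr : (I → ZMod q) → Perm (I × ZMod q)) := by
  intro f g h
  funext i
  have := congrArg (fun e : Perm (I × ZMod q) => (e (i, 0)).2) h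
  simpa using this

theorem bl_mul (σ τ : Perm I) : (bl (σ * τ) : Perm (I × ZMod q)) = bl σ * bl τ := by
  ext1 x
  simp

@[simp] theorem bl_one : (bl 1 : Perm (I × ZMod q)) = 1 := by
  ext1 x
  simp

theorem bl_inv (σ : Perm I) : (bl σ⁻¹ : Perm (I × ZMod q)) = (bl σ)⁻¹ := by
  rw [eq_inv_iff_mul_eq_one, ← bl_mul, inv_mul_cancel, bl_one]

/-- `bl` as a homomorphism -/
def blHom (I : Type*) (q : ℕ) : Perm I →* Perm (I × ZMod q) where
  toFun := bl
  map_one' := bl_one
  map_mul' := bl_mul

@[simp] theorem blHom_apply (σ : Perm I) : blHom I q σ = bl σ := rfl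

theorem bl_pow (σ : Perm I) (k : ℕ) : (bl (σ ^ k) : Perm (I × ZMod q)) = bl σ ^ k :=
  map_pow (blHom I q) σ k

theorem sc_mul (a b : I → (ZMod q)ˣ) : sc (a * b) = sc a * sc b := by
  ext1 x
  simp [mul_assoc]

@[simp] theorem sc_one : sc (1 : I → (ZMod q)ˣ) = 1 := by
  ext1 x
  simp

theorem sc_inv (a : I → (ZMod q)ˣ) : sc a⁻¹ = (sc a)⁻¹ := by
  rw [eq_inv_iff_mul_eq_one, ← sc_mul, inv_mul_cancel, sc_one]

/-- `sc` as a homomorphism -/
def scHom (I : Type*) (q : ℕ) : (I → (ZMod q)ˣ) →* Perm (I × ZMod q) where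
  toFun := sc
  map_one' := sc_one
  map_mul' := sc_mul

@[simp] theorem scHom_apply (a : I → (ZMod q)ˣ) : scHom I q a = sc a := rfl

/-- `tr` as a homomorphism -/
def trHom (I : Type*) (q : ℕ) : Multiplicative (I → ZMod q) →* Perm (I × ZMod q) where
  toFun f := tr f.toAdd
  map_one' := tr_zero
  map_mul' _ _ := tr_add _ _

@[simp] theorem trHom_apply (f : Multiplicative (I → ZMod q)) : trHom I q f = tr f.toAdd := rfl

/-! ### conjugation rules -/

theorem bl_tr (σ : Perm I) (f : I → ZMod q) : bl σ * tr f * (bl σ)⁻¹ = tr (f ∘ σ.symm) := by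
  rw [mul_inv_eq_iff_eq_mul]
  ext1 x
  simp

theorem sc_tr (a : I → (ZMod q)ˣ) (f : I → ZMod q) : sc a * tr f * (sc a)⁻¹ = tr (fun i => (a i : ZMod q) * f i) := by
  rw [mul_inv_eq_iff_eq_mul]
  ext1 x
  simp [mul_add]

theorem bl_sc (σ : Perm I) (a : I → (ZMod q)ˣ) : bl σ * sc a * (bl σ)⁻¹ = sc (a ∘ σ.symm) := by
  rw [mul_inv_eq_iff_eq_mul]
  ext1 x
  simp

theorem bl_injective [NeZero q] : Function.Injective (bl : Perm I → Perm (I × ZMod q)) := by
  intro σ τ h
  ext1 i
  have := congrArg (fun e : Perm (I × ZMod q) => (e (i, 0)).1) h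
  simpa using this

/-- a product of a translation and a block permutation determines both -/
theorem tr_bl_injective {f g : I → ZMod q} {σ τ : Perm I}
    (h : (tr f * bl σ : Perm (I × ZMod q)) = tr g * bl τ) : f = g ∧ σ = τ := by
  have h1 : σ = τ := by
    ext1 i
    have := congrArg (fun e : Perm (I × ZMod q) => (e (i, 0)).1) h
    simpa using this
  subst h1
  exact ⟨tr_injective (mul_right_cancel h), rfl⟩

/-! ### signs -/

section sign

variable [Fintype I] [DecidableEq I] [NeZero q]

theorem sign_bl (σ : Perm I) : sign (bl σ : Perm (I × ZMod q)) = sign σ ^ q := by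
  have h : (bl σ : Perm (I × ZMod q)) = prodCongrLeft (fun _ => σ) := by
    ext1 x
    rfl
  rw [h, sign_prodCongrLeft, Finset.prod_const, Finset.card_univ, ZMod.card]

theorem sign_sc (a : I → (ZMod q)ˣ) : sign (sc a) = ∏ i, sign (Units.mulLeft (a i)) := by
  have h : (sc a : Perm (I × ZMod q)) = prodCongrRight (fun i => Units.mulLeft (a i)) := by
    ext1 x
    rfl
  rw [h, sign_prodCongrRight]

/-- the sign of the multiplication by a unit, as a homomorphism -/
def eps (q : ℕ) [NeZero q] : (ZMod q)ˣ →* ℤˣ where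
  toFun u := sign (Units.mulLeft u)
  map_one' := by
    have : Units.mulLeft (1 : (ZMod q)ˣ) = 1 := by
      ext1 x
      simp
    rw [this, map_one]
  map_mul' u v := by
    have : Units.mulLeft (u * v) = Units.mulLeft u * Units.mulLeft v := by
      ext1 x
      simp [mul_assoc]
    rw [this, map_mul]

theorem sign_sc_eq (a : I → (ZMod q)ˣ) : sign (sc a) = eps q (∏ i, a i) := by
  rw [sign_sc, map_prod]
  rfl

end sign

theorem sign_eq_one_of_odd_pow {α : Type*} [Fintype α] [DecidableEq α] {g : Perm α} {k : ℕ}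
    (hk : Odd k) (h : g ^ k = 1) : sign g = 1 := by
  have h1 : (sign g) ^ k = 1 := by rw [← map_pow, h, map_one]
  rcases Int.units_eq_one_or (sign g) with h2 | h2
  · exact h2
  · rw [h2, hk.neg_one_pow] at h1
    exact absurd h1 (by decide)

theorem sign_tr_of_odd [Fintype I] [DecidableEq I] [NeZero q] (hq : Odd q) (f : I → ZMod q) :
    sign (tr f) = 1 :=
  sign_eq_one_of_odd_pow hq (tr_pow_q f)

/-! ### extension along an embedding -/

section T

variable {β α : Type*} (ι : β ↪ α)

/-- extension by the identity -/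
noncomputable def T : Perm β →* Perm α := viaEmbeddingHom ι

@[simp] theorem T_apply (g : Perm β) (x : β) : T ι g (ι x) = ι (g x) := viaEmbedding_apply g ι x

theorem T_out (g : Perm β) {y : α} (hy : y ∉ Set.range ι) : T ι g y = y :=
  viaEmbedding_apply_of_notMem g ι y hy

theorem T_injective : Function.Injective (T ι) := viaEmbeddingHom_injective ι

theorem T_ext {g : Perm α} {h : Perm β} (h1 : ∀ x, g (ι x) = ι (h x)) (h2 : ∀ y, y ∉ Set.range ι → g y = y) :
    g = T ι h := by
  ext1 y
  by_cases hy : y ∈ Set.range ι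
  · obtain ⟨x, rfl⟩ := hy
    rw [h1, T_apply]
  · rw [h2 y hy, T_out ι h hy]

theorem T_trans (g : Perm α) (h : Perm β) : T (ι.trans g.toEmbedding) h = g * T ι h * g⁻¹ := by
  symm
  apply T_ext
  · intro x
    show g (T ι h (g.symm (g (ι x)))) = g (ι (h x))
    rw [symm_apply_apply, T_apply]
  · intro y hy
    have hy' : g.symm y ∉ Set.range ι := by
      rintro ⟨x, hx⟩
      apply hy
      refine ⟨x, ?_⟩
      show g (ι x) = y
      rw [hx, apply_symm_apply]
    show g (T ι h (g.symm y)) = y
    rw [T_out ι h hy', apply_symm_apply]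

variable [Fintype α] [DecidableEq α] [Fintype β] [DecidableEq β]

theorem sign_T (g : Perm β) : sign (T ι g) = sign g := by
  classical
  rw [show T ι g = g.extendDomain (ofInjective ι.1 ι.2) from by
    ext1 y
    by_cases hy : y ∈ Set.range ι
    · obtain ⟨x, rfl⟩ := hy
      rw [T_apply]
      exact (extendDomain_apply_image g (ofInjective ι.1 ι.2) x).symm
    · rw [T_out ι g hy]
      exact (extendDomain_apply_not_subtype g (ofInjective ι.1 ι.2) hy).symm, sign_extendDomain]

theorem card_support_T (g : Perm β) : (T ι g).support.card = g.support.card := by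
  have h : (T ι g).support = g.support.map ι := by
    ext y
    rw [mem_support, Finset.mem_map]
    constructor
    · intro hy
      by_cases hy' : y ∈ Set.range ι
      · obtain ⟨x, rfl⟩ := hy'
        refine ⟨x, ?_, rfl⟩
        rw [mem_support]
        intro hx
        rw [T_apply, hx] at hy
        exact hy rfl
      · exact absurd (T_out ι g hy') hy
    · rintro ⟨x, hx, rfl⟩
      rw [T_apply]
      intro h
      exact mem_support.1 hx (ι.injective h)
  rw [h, Finset.card_map]

end T

end Cfsg.Agent.H761.Frame
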