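import Cfsg.Agent.H761.Plane
import Cfsg.Agent.H761.Crit
import Cfsg.Agent.H802.FusGroup

/-!
# `Aut_F(S) ≤ Aut_E(S)` in alternating groups, `p` odd (helper761)

`|α| = p |I| + r`, `r ≤ 1`, `I = ZMod p ⊕ J`, `S = wr ι P` Sylow in `A = alternatingGroup α`, `E` saturated, over `S`,
invariant in `F_S(A)`: `normalizer_le_Nn` : `N_A(S)` induces maps of `E`.
-/

set_option autoImplicit false

namespace Cfsg.Agent.H761

open Equiv Equiv.Perm Cfsg.Agent.H761.Frame Cfsg.Agent.H802 Cfsg.Agent.H763 Cfsg Cfsg.FusionSystem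

section general

variable {α : Type*} [Fintype α] [DecidableEq α]

theorem mem_normalizer_subgroupOf {H : Subgroup (Perm α)} {g : alternatingGroup α}
    (h : ∀ x ∈ H, (g : Perm α) * x * (g : Perm α)⁻¹ ∈ H) :
    g ∈ Subgroup.normalizer ((H.subgroupOf (alternatingGroup α) : Subgroup _) : Set (alternatingGroup α)) := by
  have h1 : H.map (MulAut.conj (g : Perm α)).toMonoidHom = H := by
    apply Subgroup.eq_of_le_of_card_ge
    · rintro _ ⟨x, hx, rfl⟩
      exact h x hx
    · rw [card_map_conj]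
  rw [Subgroup.mem_normalizer_iff]
  intro x
  rw [Subgroup.mem_subgroupOf, Subgroup.mem_subgroupOf]
  constructor
  · intro hx
    exact h _ hx
  · intro hx
    have h2 : ((g * x * g⁻¹ : alternatingGroup α) : Perm α) ∈ H.map (MulAut.conj (g : Perm α)).toMonoidHom := by
      rw [h1]
      exact hx
    obtain ⟨y, hy, hyx⟩ := h2
    have h3 : (g : Perm α) * y * (g : Perm α)⁻¹ = (g : Perm α) * x * (g : Perm α)⁻¹ := hyx
    have h4 : y = x := mul_left_cancel (mul_right_cancel h3)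
    rw [← h4]
    exact hy

theorem centralizer_subgroupOf_le {H : Subgroup (Perm α)} (hA : H ≤ alternatingGroup α)
    (h : ∀ g : Perm α, (∀ x ∈ H, g * x = x * g) → g ∈ H) :
    Subgroup.centralizer ((H.subgroupOf (alternatingGroup α) : Subgroup _) : Set (alternatingGroup α)) ≤
      H.subgroupOf (alternatingGroup α) := by
  intro g hg
  rw [Subgroup.mem_subgroupOf]
  apply h
  intro x hx
  have h1 := Subgroup.mem_centralizer_iff.1 hg ⟨x, hA hx⟩ (by
    show _ ∈ H.subgroupOf (alternatingGroup α)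
    rw [Subgroup.mem_subgroupOf]
    exact hx)
  exact (congrArg Subtype.val h1).symm

/-- `p`-cycles generate the alternating group -/
theorem alternating_le_of_pow {I : Type*} [Fintype I] [DecidableEq I] {p : ℕ} {H : Subgroup (Perm I)}
    (hH : ∀ c : Perm I, c ^ p = 1 → c ∈ H) {c₀ : Perm I} (hc : c₀ ^ p = 1) {a b d : I} (h1 : c₀ a = b)
    (h2 : c₀ b = d) (hab : a ≠ b) (hbd : b ≠ d) (had : a ≠ d) : alternatingGroup I ≤ H := by
  rw [← closure_three_cycles_eq_alternating, Subgroup.closure_le]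
  intro s hs
  have hs0 : (swap b a * swap b d).IsThreeCycle := isThreeCycle_swap_mul_swap_same hab.symm hbd had
  have hconj : IsConj (swap b a * swap b d) s := by
    rw [isConj_iff_cycleType_eq, hs0.cycleType, IsThreeCycle.cycleType hs]
  obtain ⟨g, hg⟩ := isConj_iff.1 hconj
  have h3 : swap b a * swap b d = c₀⁻¹ * (swap b d * c₀ * (swap b d)⁻¹) := by
    have h4 : c₀⁻¹ * swap b d * c₀ = swap a b := by
      have h5 : swap b d = c₀ * swap a b * c₀⁻¹ := by
        rw [← h2, ← h1]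
        exact swap_apply_apply c₀ a (c₀ a)
      rw [h5]
      group
    calc swap b a * swap b d = (c₀⁻¹ * swap b d * c₀) * (swap b d)⁻¹ := by rw [h4, swap_inv, swap_comm b a]
      _ = _ := by group
  have h6 : s = (g * c₀⁻¹ * g⁻¹) * ((g * swap b d) * c₀ * (g * swap b d)⁻¹) := by
    rw [← hg, h3]
    group
  rw [h6]
  refine H.mul_mem (hH _ ?_) (hH _ ?_)
  · rw [conj_pow, inv_pow, hc, inv_one, mul_one, mul_inv_cancel]
  · rw [conj_pow, hc, mul_one, mul_inv_cancel]

end general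

section main

variable {J α : Type*} {p : ℕ} [Fact p.Prime] [Fintype J] [DecidableEq J] [Fintype α] [DecidableEq α]

omit [Fintype α] [DecidableEq α] in
theorem isPGroup_wr {I : Type*} [Fintype I] {ι : I × ZMod p ↪ α} {P : Subgroup (Perm I)} (hP : IsPGroup p P) :
    IsPGroup p (wr ι P) := by
  obtain ⟨k, hk⟩ := IsPGroup.iff_card.1 hP
  apply IsPGroup.of_card (n := Fintype.card I + k)
  rw [card_wr, hk, pow_add]

theorem le_alternating_of_isPGroup (hp2 : p ≠ 2) {H : Subgroup (Perm α)} (hH : IsPGroup p H) :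
    H ≤ alternatingGroup α := by
  intro x hx
  have hp : p.Prime := Fact.out
  obtain ⟨k, hk⟩ := hH ⟨x, hx⟩
  have hk' : x ^ p ^ k = 1 := congrArg Subtype.val hk
  rw [mem_alternatingGroup]
  exact sign_eq_one_of_odd_pow ((hp.odd_of_ne_two hp2).pow) hk'

theorem sign_xx (hp2 : p ≠ 2) (b : ZMod p) : sign (xx b) = 1 := by
  have hp : p.Prime := Fact.out
  rw [← sign_T (kap (Fin 0) p), T_kap_xx]
  exact sign_tr_of_odd (hp.odd_of_ne_two hp2) _

theorem sign_ww (hp2 : p ≠ 2) : sign (ww : Perm (ZMod p × ZMod p)) = 1 := by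
  rw [ww_eq, yy_eq, map_mul, map_mul, map_mul, map_mul, map_inv, sign_xx hp2, sign_xx hp2]
  rcases Int.units_eq_one_or (sign (ww : Perm (ZMod p × ZMod p))) with h | h <;> rw [h] <;> decide

theorem sign_tt (hp2 : p ≠ 2) (a : (ZMod p)ˣ) : sign (tt a) = 1 := by
  rw [tt_eq, yy_eq]
  simp only [map_mul, map_inv, sign_xx hp2, sign_ww hp2]
  decide

variable {ι : (ZMod p ⊕ J) × ZMod p ↪ α} {P : Subgroup (Perm (ZMod p ⊕ J))}
  {S : Subgroup (alternatingGroup α)} {E : FusionSystem S}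

/-- the elements `tt a` induce maps of `E` on the base group -/
theorem tt_mem (hp2 : p ≠ 2) (hout : ∀ y z : α, y ∉ Set.range ι → z ∉ Set.range ι → y = z)
    (hQ : shQ J p ≤ P) (hP : IsPGroup p P) (hS : S = (wr ι P).subgroupOf (alternatingGroup α))
    (hE : E.IsSaturated p) (hEF : E.IsInvariantIn (groupFusionSystem S))
    (hB : (base ι).subgroupOf (alternatingGroup α) ≤ S) (a : (ZMod p)ˣ) :
    T ι (T (kap J p) (tt a)) ∈ (Nn E hB).map (alternatingGroup α).subtype := by
  have hSp : IsPGroup p S := by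
    rw [hS]
    exact (isPGroup_wr hP).comap_of_injective _ (Subgroup.subtype_injective _)
  have hwA : wr ι P ≤ alternatingGroup α := le_alternating_of_isPGroup hp2 (isPGroup_wr hP)
  have hRle : wr ι (shQ J p) ≤ wr ι P := by
    rintro _ ⟨f, σ, hσ, rfl⟩
    exact ⟨f, σ, hQ hσ, rfl⟩
  have hV1 : V1 ι ≤ wr ι P := (V1_le ι).trans hRle
  have hV : (V1 ι).subgroupOf (alternatingGroup α) ≤ S := by
    rw [hS]
    exact Subgroup.comap_mono hV1
  have hR : (wr ι (shQ J p)).subgroupOf (alternatingGroup α) ≤ S := by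
    rw [hS]
    exact Subgroup.comap_mono hRle
  have hVR : (V1 ι).subgroupOf (alternatingGroup α) ≤ (wr ι (shQ J p)).subgroupOf (alternatingGroup α) :=
    Subgroup.comap_mono (V1_le ι)
  have hBR : (base ι).subgroupOf (alternatingGroup α) ≤ (wr ι (shQ J p)).subgroupOf (alternatingGroup α) := by
    apply Subgroup.comap_mono
    rintro _ ⟨f, σ, hσ, rfl⟩
    rw [Subgroup.mem_bot] at hσ
    subst hσ
    exact ⟨f, 1, Subgroup.one_mem _, rfl⟩
  have hC : Subgroup.centralizer (((V1 ι).subgroupOf (alternatingGroup α) : Subgroup _) : Set (alternatingGroup α)) ≤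
      (V1 ι).subgroupOf (alternatingGroup α) :=
    centralizer_subgroupOf_le (hV1.trans hwA) (fun g hg => cent_V1 hout hg)
  -- the elements of the plane inducing maps of `E` on `V1`
  obtain ⟨Φ, hΦ⟩ : ∃ Φ : Subgroup (Perm (ZMod p × ZMod p)),
      Φ = ((Nn E hV).map (alternatingGroup α).subtype).comap ((T ι).comp (T (kap J p))) := ⟨_, rfl⟩
  have hmem : ∀ g, g ∈ Φ ↔ ∃ h : T ι (T (kap J p) g) ∈ alternatingGroup α, (⟨_, h⟩ : alternatingGroup α) ∈ Nn E hV := by
    intro g
    rw [hΦ, Subgroup.mem_comap]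
    constructor
    · rintro ⟨y, hy, hyg⟩
      have h1 : (y : Perm α) = T ι (T (kap J p) g) := hyg
      refine ⟨by rw [← h1]; exact y.2, ?_⟩
      have h2 : (⟨T ι (T (kap J p) g), by rw [← h1]; exact y.2⟩ : alternatingGroup α) = y := Subtype.ext h1.symm
      rw [h2]
      exact hy
    · rintro ⟨h, h1⟩
      exact ⟨_, h1, rfl⟩
  have hxx : ∀ b : ZMod p, xx b ∈ Φ := by
    intro b
    rw [hmem]
    have h1 : T ι (T (kap J p) (xx b)) ∈ wr ι P := by
      rw [T_kap_xx]
      exact tr_mem_wr ι P _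
    refine ⟨hwA h1, mem_Nn_of_mem hV ?_ ?_⟩
    · rw [hS, Subgroup.mem_subgroupOf]
      exact h1
    · exact mem_normalizer_subgroupOf (fun x hx => conj_V1 (xx_add b) hx)
  have hwwA : T ι (T (kap J p) ww) ∈ alternatingGroup α := by
    rw [mem_alternatingGroup, sign_T, sign_T, sign_ww hp2]
  have hyy : ∀ b : ZMod p, yy b ∈ Φ := by
    intro b
    obtain ⟨h1, h2⟩ := (hmem _).1 (hxx (-b))
    have h3 := Nn_conj hEF hV h2 (n := ⟨_, hwwA⟩)
      (mem_normalizer_subgroupOf (fun x hx => conj_V1 ww_add hx))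
    rw [hΦ, Subgroup.mem_comap]
    refine ⟨_, h3, ?_⟩
    show T ι (T (kap J p) ww) * T ι (T (kap J p) (xx (-b))) * (T ι (T (kap J p) ww))⁻¹ =
      T ι (T (kap J p) (yy b))
    rw [yy_eq, ← map_inv, ← map_inv, ← map_mul, ← map_mul, ← map_mul, ← map_mul]
  have hww : (ww : Perm (ZMod p × ZMod p)) ∈ Φ := by
    rw [ww_eq]
    exact Φ.mul_mem (Φ.mul_mem (hxx _) (hyy _)) (hxx _)
  have htt : tt a ∈ Φ := by
    rw [tt_eq]
    exact Φ.mul_mem (Φ.mul_mem (Φ.mul_mem (hxx _) (hyy _)) (hxx _)) (Φ.inv_mem hww)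
  obtain ⟨h1, h2⟩ := (hmem _).1 htt
  have h3 := Nn_up' hSp hE hEF.1 hVR hR hC
    (mem_normalizer_subgroupOf (g := ⟨_, h1⟩) (fun x hx => conj_tt_R1 ι a hx)) h2
  have h4 := Nn_down hBR hR (mem_normalizer_subgroupOf (g := ⟨_, h1⟩) (fun x hx => by
    obtain ⟨f, rfl⟩ := mem_base.1 hx
    show T ι (T (kap J p) (tt a)) * T ι (tr f) * (T ι (T (kap J p) (tt a)))⁻¹ ∈ base ι
    rw [T_kap_tt, ← map_inv (T ι), ← map_mul (T ι), ← map_mul (T ι)]
    have h5 := mono_tr 0 (Sum.elim (fun _ => a) (fun _ : J => (1 : (ZMod p)ˣ))) (mu J a⁻¹) f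
    rw [tr_zero, one_mul] at h5
    rw [h5]
    exact mem_base.2 ⟨_, rfl⟩)) h3
  exact ⟨_, h4, rfl⟩

/-- **Every element of the normaliser of the base group induces a map of `E` on it.** -/
theorem base_norm_mem (hp2 : p ≠ 2) (hout : ∀ y z : α, y ∉ Set.range ι → z ∉ Set.range ι → y = z)
    (hQ : shQ J p ≤ P) (hP : IsPGroup p P) (hS : S = (wr ι P).subgroupOf (alternatingGroup α))
    (hSyl : SylIn p S ⊤)
    (hE : E.IsSaturated p) (hEF : E.IsInvariantIn (groupFusionSystem S))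
    (hB : (base ι).subgroupOf (alternatingGroup α) ≤ S) {g : Perm α} (hgA : g ∈ alternatingGroup α)
    (hg : ∀ x ∈ base ι, g * x * g⁻¹ ∈ base ι) :
    g ∈ (Nn E hB).map (alternatingGroup α).subtype := by
  have hp : p.Prime := Fact.out
  have hodd : Odd p := hp.odd_of_ne_two hp2
  have hp3 : 3 ≤ p := by
    have := hp.two_le
    omega
  obtain ⟨H, hH⟩ : ∃ H : Subgroup (Perm α), H = (Nn E hB).map (alternatingGroup α).subtype := ⟨_, rfl⟩
  rw [← hH]
  have hHA : H ≤ alternatingGroup α := by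
    rw [hH]
    rintro _ ⟨y, -, rfl⟩
    exact y.2
  have hwrnorm : ∀ x ∈ wr ι P, ∀ y ∈ base ι, x * y * x⁻¹ ∈ base ι := by
    rintro _ ⟨f, σ, -, rfl⟩ y hy
    obtain ⟨h, rfl⟩ := mem_base.1 hy
    rw [← map_inv (T ι), ← map_mul (T ι), ← map_mul (T ι)]
    have h5 := mono_tr f 1 σ h
    rw [sc_one, mul_one] at h5
    rw [h5]
    exact mem_base.2 ⟨_, rfl⟩
  have hSB : S ≤ Subgroup.normalizer (((base ι).subgroupOf (alternatingGroup α) : Subgroup _) :
      Set (alternatingGroup α)) := by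
    intro x hx
    rw [hS, Subgroup.mem_subgroupOf] at hx
    exact mem_normalizer_subgroupOf (hwrnorm _ hx)
  -- elements of order `p`
  have hpel : ∀ x : Perm ((ZMod p ⊕ J) × ZMod p), x ^ p = 1 →
      (∀ h : ZMod p ⊕ J → ZMod p, ∃ h', x * tr h * x⁻¹ = tr h') → T ι x ∈ H := by
    intro x hx hn
    have h1 : T ι x ∈ alternatingGroup α := by
      rw [mem_alternatingGroup, sign_T]
      exact sign_eq_one_of_odd_pow hodd hx
    have h2 : (⟨T ι x, h1⟩ : alternatingGroup α) ∈ Nn E hB := by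
      refine mem_Nn_of_pElement hSyl hEF hB hSB (k := 1) ?_ ?_
      · refine mem_normalizer_subgroupOf (fun y hy => ?_)
        obtain ⟨h, rfl⟩ := mem_base.1 hy
        show T ι x * T ι (tr h) * (T ι x)⁻¹ ∈ base ι
        obtain ⟨h', hh'⟩ := hn h
        rw [← map_inv (T ι), ← map_mul (T ι), ← map_mul (T ι), hh']
        exact mem_base.2 ⟨h', rfl⟩
      · apply Subtype.ext
        show (T ι x) ^ p ^ 1 = 1
        rw [pow_one, ← map_pow, hx, map_one]
    rw [hH]
    exact ⟨_, h2, rfl⟩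
  have htrH : ∀ f, T ι (tr f) ∈ H := by
    intro f
    refine hpel _ (tr_pow_q f) (fun h => ⟨h, ?_⟩)
    rw [tr_comm, mul_inv_cancel_right]
  have hblp : ∀ c : Perm (ZMod p ⊕ J), c ^ p = 1 → T ι (bl c) ∈ H := by
    intro c hc
    refine hpel _ (by rw [← bl_pow, hc, bl_one]) (fun h => ⟨_, bl_tr c h⟩)
  have hc0 : (sh J (1 : ZMod p)) ^ p = 1 := by
    rw [← sh_nsmul]
    simp [sh_zero]
  have h01 : (0 : ZMod p) ≠ 1 := zero_ne_one
  have h12 : (1 : ZMod p) ≠ 2 := by
    intro h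
    have h2 : (1 : ZMod p) = 0 := by linear_combination -h
    exact one_ne_zero h2
  have h02 : (0 : ZMod p) ≠ 2 := by
    intro h
    have h2 : ((2 : ℕ) : ZMod p) = 0 := by rw [Nat.cast_ofNat]; exact h.symm
    rw [ZMod.natCast_eq_zero_iff] at h2
    have := Nat.le_of_dvd (by norm_num) h2
    omega
  -- block permutations
  have hbl : ∀ σ ∈ alternatingGroup (ZMod p ⊕ J), T ι (bl σ) ∈ H := by
    have h1 : alternatingGroup (ZMod p ⊕ J) ≤ H.comap ((T ι).comp (blHom (ZMod p ⊕ J) p)) :=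
      alternating_le_of_pow (p := p) (fun c hc => hblp c hc) hc0 (a := Sum.inl 0) (b := Sum.inl 1)
        (d := Sum.inl 2) (by rw [sh_inl, zero_add]) (by rw [sh_inl, one_add_one_eq_two])
        (fun h => h01 (Sum.inl.inj h)) (fun h => h12 (Sum.inl.inj h)) (fun h => h02 (Sum.inl.inj h))
    exact fun σ hσ => h1 hσ
  -- scalings
  have hsc2 : ∀ (i j : ZMod p ⊕ J) (u : (ZMod p)ˣ), i ≠ j →
      T ι (sc (Pi.mulSingle i u * (Pi.mulSingle j u)⁻¹)) ∈ H := by
    intro i j u hij
    obtain ⟨g, hg⟩ := Equiv.Perm.exists_extending_pair ![(Sum.inl 0 : ZMod p ⊕ J), Sum.inl 1] ![i, j]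
      (by
        intro a b hab
        fin_cases a <;> fin_cases b <;> first | rfl | exact absurd (Sum.inl.inj hab) h01 |
          exact absurd (Sum.inl.inj hab) h01.symm)
      (by
        intro a b hab
        fin_cases a <;> fin_cases b <;> first | rfl | exact absurd hab hij | exact absurd hab hij.symm)
    have hg0 : g (Sum.inl 0) = i := hg 0
    have hg1 : g (Sum.inl 1) = j := hg 1
    set c := g * sh J (1 : ZMod p) * g⁻¹ with hc
    have hcp : c ^ p = 1 := by rw [hc, conj_pow, hc0, mul_one, mul_inv_cancel]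
    have hci : c i = j := by
      rw [hc, ← hg0]
      show g (sh J 1 (g.symm (g (Sum.inl 0)))) = j
      rw [symm_apply_apply, sh_inl, zero_add, hg1]
    set m : (ZMod p ⊕ J) → (ZMod p)ˣ := Pi.mulSingle i u with hm
    have hmc : m ∘ c.symm = Pi.mulSingle j u := by
      funext k
      rw [Function.comp_apply, hm]
      by_cases hk : k = j
      · subst hk
        rw [← hci, symm_apply_apply, Pi.mulSingle_eq_same, Pi.mulSingle_eq_same]
      · rw [Pi.mulSingle_eq_of_ne hk, Pi.mulSingle_eq_of_ne]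
        intro h
        apply hk
        rw [← hci, ← h, apply_symm_apply]
    have hX : T ι (sc m * bl c * (sc m)⁻¹) ∈ H := by
      refine hpel _ ?_ (fun h => ?_)
      · rw [conj_pow, ← bl_pow, hcp, bl_one, mul_one, mul_inv_cancel]
      · have h1 : sc m * bl c * (sc m)⁻¹ * tr h * (sc m * bl c * (sc m)⁻¹)⁻¹ =
            sc m * (bl c * (sc m⁻¹ * tr h * (sc m⁻¹)⁻¹) * (bl c)⁻¹) * (sc m)⁻¹ := by
          rw [sc_inv]
          group
        rw [h1, sc_tr, bl_tr, sc_tr]
        exact ⟨_, rfl⟩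
    have h1 := H.mul_mem hX (H.inv_mem (hblp c hcp))
    rw [← map_inv, ← map_mul] at h1
    have h2 : sc m * bl c * (sc m)⁻¹ * (bl c)⁻¹ = sc (m * (Pi.mulSingle j u)⁻¹) := by
      rw [sc_mul, sc_inv, ← hmc, ← bl_sc]
      group
    rwa [h2] at h1
  have hsc : ∀ b : ZMod p ⊕ J → (ZMod p)ˣ, ∏ i, b i = 1 → T ι (sc b) ∈ H := by
    intro b hb
    have h1 : b = ∏ i, (Pi.mulSingle i (b i) * (Pi.mulSingle (Sum.inl 0) (b i))⁻¹) := by
      rw [Finset.prod_mul_distrib, Finset.univ_prod_mulSingle, Finset.prod_inv_distrib]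
      have h2 : ∏ i, (Pi.mulSingle (Sum.inl 0) (b i) : ZMod p ⊕ J → (ZMod p)ˣ) = 1 := by
        have h3 := (map_prod (MonoidHom.mulSingle (fun _ : ZMod p ⊕ J => (ZMod p)ˣ) (Sum.inl 0)) b Finset.univ)
        rw [hb, map_one] at h3
        exact h3.symm
      rw [h2, inv_one, mul_one]
    have h2 : ∀ i, (Pi.mulSingle i (b i) * (Pi.mulSingle (Sum.inl 0) (b i))⁻¹ : ZMod p ⊕ J → (ZMod p)ˣ) ∈
        H.comap ((T ι).comp (scHom (ZMod p ⊕ J) p)) := by
      intro i
      by_cases hi : i = Sum.inl 0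
      · rw [hi, mul_inv_cancel]
        exact Subgroup.one_mem _
      · exact hsc2 i (Sum.inl 0) (b i) hi
    have h3 := Subgroup.prod_mem (H.comap ((T ι).comp (scHom (ZMod p ⊕ J) p))) (t := Finset.univ) (fun i _ => h2 i)
    rw [← h1] at h3
    exact h3
  -- the end
  obtain ⟨f, a, σ, hgm⟩ := norm_base hout hg
  set u := ∏ i, a i with hu
  have htt : T ι (T (kap J p) (tt u)) ∈ H := by
    rw [hH]
    exact tt_mem hp2 hout hQ hP hS hE hEF hB u
  set s : ZMod p ⊕ J → (ZMod p)ˣ := Sum.elim (fun _ => u) (fun _ : J => (1 : (ZMod p)ˣ)) with hs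
  set τ := σ * (mu J u⁻¹)⁻¹ with hτ
  have h1 : g = T ι (tr f) * T ι (sc (a * (s⁻¹ ∘ τ.symm))) * T ι (bl τ) * T ι (T (kap J p) (tt u)) := by
    rw [hgm, T_kap_tt, ← map_mul (T ι), ← map_mul (T ι), ← map_mul (T ι), ← hs]
    congr 1
    rw [sc_mul, ← bl_sc, sc_inv, hτ, bl_mul, bl_inv]
    group
  have hprod : ∏ i, (a * (s⁻¹ ∘ τ.symm)) i = 1 := by
    simp only [Pi.mul_apply, Function.comp_apply, Pi.inv_apply]
    rw [Finset.prod_mul_distrib, ← hu, Finset.prod_inv_distrib]
    have h2 : ∏ i, s (τ.symm i) = ∏ i, s i := Equiv.prod_comp τ.symm s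
    rw [h2, Fintype.prod_sum_type, hs]
    simp only [Sum.elim_inl, Sum.elim_inr, Finset.prod_const, Finset.card_univ, ZMod.card, one_pow, mul_one]
    have h3 : u ^ p = u := by
      have h4 : u ^ (p - 1) = 1 := ZMod.units_pow_card_sub_one_eq_one p u
      calc u ^ p = u ^ (p - 1 + 1) := by congr 1; omega
        _ = u := by rw [pow_succ, h4, one_mul]
    rw [h3, mul_inv_cancel]
  have h2 := hsc _ hprod
  have h3 : T ι (bl τ) ∈ alternatingGroup α := by
    have h4 : T ι (bl τ) = (T ι (tr f) * T ι (sc (a * (s⁻¹ ∘ τ.symm))))⁻¹ * g * (T ι (T (kap J p) (tt u)))⁻¹ := by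
      rw [h1]
      group
    rw [h4]
    exact Subgroup.mul_mem _ (Subgroup.mul_mem _ (Subgroup.inv_mem _
      (Subgroup.mul_mem _ (hHA (htrH f)) (hHA h2))) hgA) (Subgroup.inv_mem _ (hHA htt))
  have h5 : τ ∈ alternatingGroup (ZMod p ⊕ J) := by
    rw [mem_alternatingGroup, sign_T, sign_bl] at h3
    rw [mem_alternatingGroup]
    rcases Int.units_eq_one_or (sign τ) with h6 | h6
    · exact h6
    · rw [h6, hodd.neg_one_pow] at h3
      exact absurd h3 (by decide)
  rw [h1]
  exact H.mul_mem (H.mul_mem (H.mul_mem (htrH f) h2) (hbl _ h5)) htt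

/-- **`N_A(S)` induces maps of `E` on `S`.** -/
theorem normalizer_le_Nn (hp2 : p ≠ 2) (hout : ∀ y z : α, y ∉ Set.range ι → z ∉ Set.range ι → y = z)
    (hQ : shQ J p ≤ P) (hP : IsPGroup p P) (hS : S = (wr ι P).subgroupOf (alternatingGroup α))
    (hSyl : SylIn p S ⊤)
    (hE : E.IsSaturated p) (hEF : E.IsInvariantIn (groupFusionSystem S)) :
    Subgroup.normalizer (S : Set (alternatingGroup α)) ≤ Nn E (le_refl S) := by
  have hp : p.Prime := Fact.out
  have hB : (base ι).subgroupOf (alternatingGroup α) ≤ S := by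
    rw [hS]
    apply Subgroup.comap_mono
    rintro _ ⟨f, σ, hσ, rfl⟩
    rw [Subgroup.mem_bot] at hσ
    subst hσ
    exact ⟨f, 1, Subgroup.one_mem _, rfl⟩
  have hSp : IsPGroup p S := by
    rw [hS]
    exact (isPGroup_wr hP).comap_of_injective _ (Subgroup.subtype_injective _)
  have hwA : wr ι P ≤ alternatingGroup α := le_alternating_of_isPGroup hp2 (isPGroup_wr hP)
  have hbA : base ι ≤ alternatingGroup α := by
    refine le_trans ?_ hwA
    rintro _ ⟨f, σ, hσ, rfl⟩
    rw [Subgroup.mem_bot] at hσ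
    subst hσ
    exact ⟨f, 1, Subgroup.one_mem _, rfl⟩
  intro g hg
  -- `g` normalises the base group
  have h1 : ∀ i, (g : Perm α) * T ι (tr (Pi.single i (1 : ZMod p))) * (g : Perm α)⁻¹ ∈ base ι := by
    intro i
    have h2 : T ι (tr (Pi.single i (1 : ZMod p))) ∈ alternatingGroup α := hbA (mem_base.2 ⟨_, rfl⟩)
    have h3 : (⟨_, h2⟩ : alternatingGroup α) ∈ S := hB (by
      rw [Subgroup.mem_subgroupOf]
      exact mem_base.2 ⟨_, rfl⟩)
    have h4 := (Subgroup.mem_normalizer_iff.1 hg _).1 h3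
    have h4' : g * ⟨_, h2⟩ * g⁻¹ ∈ (wr ι P).subgroupOf (alternatingGroup α) := by
      rw [← hS]
      exact h4
    rw [Subgroup.mem_subgroupOf] at h4'
    obtain ⟨f, σ, hσ, h5⟩ := h4'
    have h6 : (g : Perm α) * T ι (tr (Pi.single i (1 : ZMod p))) * (g : Perm α)⁻¹ = T ι (tr f * bl σ) := h5
    have h7 : σ = 1 := by
      apply bl_eq_one_of_cycle (ι := ι) (f := f)
      · rw [← h6]
        exact (oneCycle_single ι i).conj _
      · rw [← h6, conj_pow, ← map_pow, tr_pow_q, map_one, mul_one, mul_inv_cancel]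
    rw [h6, h7, bl_one, mul_one]
    exact mem_base.2 ⟨f, rfl⟩
  have h2 : ∀ x ∈ base ι, (g : Perm α) * x * (g : Perm α)⁻¹ ∈ base ι := by
    intro x hx
    obtain ⟨f, rfl⟩ := mem_base.1 hx
    -- the set of good translations is a subgroup
    let K : AddSubgroup (ZMod p ⊕ J → ZMod p) :=
      { carrier := {f | (g : Perm α) * T ι (tr f) * (g : Perm α)⁻¹ ∈ base ι}
        add_mem' := by
          intro a b ha hb
          have h3 := (base ι).mul_mem ha hb
          have h4 : (g : Perm α) * T ι (tr a) * (g : Perm α)⁻¹ * ((g : Perm α) * T ι (tr b) * (g : Perm α)⁻¹) =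
              (g : Perm α) * T ι (tr (a + b)) * (g : Perm α)⁻¹ := by
            rw [tr_add, map_mul]
            group
          rw [h4] at h3
          exact h3
        zero_mem' := by
          show (g : Perm α) * T ι (tr 0) * (g : Perm α)⁻¹ ∈ base ι
          rw [tr_zero, map_one, mul_one, mul_inv_cancel]
          exact (base ι).one_mem
        neg_mem' := by
          intro a ha
          have h3 := (base ι).inv_mem ha
          have h4 : ((g : Perm α) * T ι (tr a) * (g : Perm α)⁻¹)⁻¹ =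
              (g : Perm α) * T ι (tr (-a)) * (g : Perm α)⁻¹ := by
            rw [tr_neg, map_inv]
            group
          rw [h4] at h3
          exact h3 }
    have h3 : f ∈ K := by
      rw [← Finset.univ_sum_single f]
      refine AddSubgroup.sum_mem K (fun i _ => ?_)
      have h4 : (Pi.single i (f i) : ZMod p ⊕ J → ZMod p) = (f i).val • Pi.single i 1 := by
        rw [← Pi.single_smul]
        simp
      rw [h4]
      exact AddSubgroup.nsmul_mem K (h1 i) _
    exact h3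
  have h3 := base_norm_mem hp2 hout hQ hP hS hSyl hE hEF hB g.2 h2
  obtain ⟨y, hy, hyg⟩ := h3
  have h4 : y = g := Subtype.ext hyg
  subst h4
  refine Nn_up' hSp hE hEF.1 hB le_rfl ?_ hg hy
  exact centralizer_subgroupOf_le hbA (fun g hg => cent_base hout hg)

end main

end Cfsg.Agent.H761
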